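import Cfsg.Agent.H271.PU.RowB
import Cfsg.Agent.H799.PB.LyEasy
import Cfsg.Agent.TypeM.FactsLy

/-!
# S3046, case B: the row `Ly` at `p = 5` (helper537)
-/

set_option autoImplicit false

namespace Cfsg.Agent.H537.PU

open Subgroup Cfsg Cfsg.Agent.H271.PU
open Cfsg.Agent.SporRec Cfsg.Agent.SporRec.LyFiveCore Cfsg.Agent.SporRec.LyFiveExtra Cfsg.Agent.SporRec.LyFiveSix
open Cfsg.Agent.H799.PB

/-- an element `f` of order 5 with `O(C(f))` extraspecial of order `5 ^ 5` and irreducible -/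
theorem rowB_five {G : Type*} [Group G] [Finite G] {L : LyType.LyType G} {f : G} (hf : Five L f) : RowB 5 G := by
  have hp5 : Fact (Nat.Prime 5) := ⟨Nat.prime_five⟩
  have h := Cfsg.Agent.H799.PB.fin hf
  have hE := H799.PB.extra hf
  have hcf : ∀ y : G, (∀ k ∈ core f, k * y = y * k) → y ∈ zpowers f := by
    intro y hy
    exact hE.center y (cent_core_le hf (mem_centralizer_iff.2 hy)) fun k hk => (hy k hk).symm
  obtain ⟨T, hT⟩ := (isPGroup_core hf).exists_le_sylow
  refine rowB_of_center (T := T) (z₀ := f) ?_ (orderOf_f hf) ?_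
  · intro y _ hyc _
    exact hcf y fun k hk => hyc k (hT hk)
  · intro A hA hzA hAc hN hcard
    exfalso
    have hA5 : IsPGroup 5 ↥A := by
      intro a
      refine ⟨1, Subtype.ext ?_⟩
      rw [pow_one]
      exact hA.2 _ a.2
    have hodd : Odd (Nat.card A) := by
      obtain ⟨n, hn⟩ := IsPGroup.iff_card.1 hA5
      rw [hn]
      exact Odd.pow (by decide)
    have hnorm : ∀ y ∈ centralizer ({f} : Set G), ∀ n ∈ A, y * n * y⁻¹ ∈ A := fun y hy n hn =>
      (mem_normalizer_iff.1 (hN hy) n).1 hn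
    have hAK : A ≤ core f := by
      rw [LyFiveCore.core_eq]
      exact le_coreOf hAc hnorm hodd
    rcases h.eq_or (U := A) (zpowers_le.2 hzA) hAK
      (fun s hs u hu => hnorm s (mem_centralizer_singleton_iff.2 (h.Sf s hs)) u hu) with h1 | h1
    · rw [h1, h.card_F] at hcard
      norm_num at hcard
    · obtain ⟨a, ha, b, hb, hab⟩ := hE.not_comm
      rw [← h1] at ha hb
      exact hab (congrArg Subtype.val (hA.1.is_comm.comm ⟨a, ha⟩ ⟨b, hb⟩))

universe u

/-- **`Ly`, `p = 5`** -/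
theorem rowB_ly {K : Type u} [Group K] [Finite K] (h : Spor.IsoLy K) : RowB 5 K := by
  obtain ⟨e⟩ := h
  have hfin : Finite Cfsg.Spor.Ly := Cfsg.Agent.Ly.Setup.finite_ly
  obtain ⟨M⟩ := TypeM.FactsLy.exists_mt_ly
  let L : LyType.LyType Cfsg.Spor.Ly := { t := M.t, K := M.K, hz := M.hz, one := M.one }
  obtain ⟨f, hf⟩ := LyFiveFinal.exists_five L
  have : Fact (Nat.Prime 5) := ⟨Nat.prime_five⟩
  exact (rowB_five hf).congr e.symm

end Cfsg.Agent.H537.PU
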